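import Mathlib
import Cfsg.Agent.H9.NFour

set_option autoImplicit false

/-! Connectivity of commuting graphs of elementary abelian subgroups of a 2-group having a large
normal elementary abelian subgroup. -/

namespace Cfsg.H9.KConn

open Subgroup

variable {X : Type*} [Group X] [Finite X]

omit [Finite X] in
theorem comm_of (D : Subgroup X) (h2 : ∀ a ∈ D, a ^ 2 = 1) : ∀ a ∈ D, ∀ b ∈ D, a * b = b * a :=
  fun a ha b hb => congrArg Subtype.val ((NFour.comm_of_sq D h2).is_comm.comm ⟨a, ha⟩ ⟨b, hb⟩)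

theorem card_le_sq (D : Subgroup X) (h2 : ∀ a ∈ D, a ^ 2 = 1) (x : X) (hx : x * x = 1)
    (hn : ∀ d ∈ D, x * d * x⁻¹ ∈ D) :
    Nat.card D ≤ Nat.card (D ⊓ centralizer ({x} : Set X) : Subgroup X) ^ 2 := by
  have hc := comm_of D h2
  have hxinv : x⁻¹ = x := inv_eq_of_mul_eq_one_left hx
  let f : D →* D :=
    { toFun := fun d => ⟨d * (x * d * x⁻¹), D.mul_mem d.2 (hn d d.2)⟩
      map_one' := by apply Subtype.ext; simp
      map_mul' := by
        intro a b
        apply Subtype.ext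
        show (a : X) * b * (x * (a * b) * x⁻¹) = a * (x * a * x⁻¹) * (b * (x * b * x⁻¹))
        have h1 : x * ((a : X) * b) * x⁻¹ = (x * a * x⁻¹) * (x * b * x⁻¹) := by group
        have h2 := hc b b.2 (x * a * x⁻¹) (hn a a.2)
        rw [h1]
        calc (a : X) * b * (x * a * x⁻¹ * (x * b * x⁻¹))
            = a * (b * (x * a * x⁻¹)) * (x * b * x⁻¹) := by group
          _ = a * ((x * a * x⁻¹) * b) * (x * b * x⁻¹) := by rw [h2]
          _ = _ := by group }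
  have hf : ∀ d : D, ((f d : D) : X) = d * (x * d * x⁻¹) := fun d => rfl
  have h1 : Nat.card f.ker * Nat.card f.range = Nat.card D := by
    rw [← Subgroup.index_ker, Subgroup.card_mul_index]
  have hker : ∀ d : D, d ∈ f.ker → (d : X) ∈ D ⊓ centralizer ({x} : Set X) := by
    intro d hd
    refine mem_inf.mpr ⟨d.2, ?_⟩
    rw [mem_centralizer_singleton_iff]
    have h3 : (d : X) * (x * d * x⁻¹) = 1 := by
      rw [← hf]; rw [MonoidHom.mem_ker] at hd; rw [hd]; rfl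
    have h4 : (d : X) * d = 1 := by rw [← sq]; exact h2 d d.2
    have h5 : x * d * x⁻¹ = d := mul_left_cancel (h3.trans h4.symm)
    calc (d : X) * x = (x * d * x⁻¹) * x := by rw [h5]
      _ = x * d := by group
  have hrange : ∀ d : D, d ∈ f.range → (d : X) ∈ D ⊓ centralizer ({x} : Set X) := by
    rintro _ ⟨d, rfl⟩
    refine mem_inf.mpr ⟨(f d).2, ?_⟩
    rw [mem_centralizer_singleton_iff, hf]
    have h3 := hc d d.2 (x * d * x⁻¹) (hn d d.2)
    calc (d : X) * (x * d * x⁻¹) * x = (x * d * x⁻¹) * d * x := by rw [h3]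
      _ = x * d * x * d * x := by rw [hxinv]
      _ = x * d * x * d * x⁻¹ := by rw [hxinv]
      _ = x * (d * (x * d * x⁻¹)) := by group
  have hk : Nat.card f.ker ≤ Nat.card (D ⊓ centralizer ({x} : Set X) : Subgroup X) := by
    rw [← card_map_of_injective D.subtype_injective]
    exact card_le_of_le (by rintro _ ⟨d, hd, rfl⟩; exact hker d hd)
  have hr : Nat.card f.range ≤ Nat.card (D ⊓ centralizer ({x} : Set X) : Subgroup X) := by
    rw [← card_map_of_injective D.subtype_injective]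
    exact card_le_of_le (by rintro _ ⟨d, hd, rfl⟩; exact hrange d hd)
  rw [← h1, sq]
  exact Nat.mul_le_mul hk hr

theorem key (E : Subgroup X) [hEn : E.Normal] (hE2 : ∀ e ∈ E, e ^ 2 = 1) (A : Subgroup X)
    (hA2 : ∀ a ∈ A, a ^ 2 = 1) :
    Nat.card E ^ Nat.card (A ⊓ E : Subgroup X) ≤
      Nat.card (E ⊓ centralizer (A : Set X) : Subgroup X) ^ Nat.card A := by
  classical
  set A₀ := A ⊓ E with hA₀
  have hEc := comm_of E hE2
  have hAc := comm_of A hA2
  have h0 : A₀ ≤ A₀ ∧ A₀ ≤ A ∧ Nat.card E ^ Nat.card A₀ ≤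
      Nat.card (E ⊓ centralizer (A₀ : Set X) : Subgroup X) ^ Nat.card A₀ := by
    refine ⟨le_rfl, inf_le_left, ?_⟩
    have : E ⊓ centralizer (A₀ : Set X) = E := by
      rw [inf_eq_left]
      intro e he
      rw [mem_centralizer_iff]
      intro a ha
      exact hEc a ha.2 e he
    rw [this]
  obtain ⟨B, hB⟩ := (Set.toFinite {B : Subgroup X | A₀ ≤ B ∧ B ≤ A ∧ Nat.card E ^ Nat.card A₀ ≤
      Nat.card (E ⊓ centralizer (B : Set X) : Subgroup X) ^ Nat.card B}).exists_maximal ⟨A₀, h0⟩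
  obtain ⟨⟨hB0, hBA, hBP⟩, hmax⟩ := hB
  by_cases hBeq : B = A
  · rw [← hBeq]; exact hBP
  · exfalso
    obtain ⟨x, hxA, hxB⟩ := SetLike.exists_of_lt (lt_of_le_of_ne hBA hBeq)
    have hxx : x * x = 1 := by rw [← sq]; exact hA2 x hxA
    set B' := B ⊔ zpowers x with hB'
    have hBB' : B < B' := by
      apply lt_of_le_of_ne le_sup_left
      intro h
      apply hxB
      rw [h]
      exact le_sup_right (a := B) (mem_zpowers x)
    have hB'A : B' ≤ A := sup_le hBA (zpowers_le.mpr hxA)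
    set D := E ⊓ centralizer (B : Set X) with hD
    have hD2 : ∀ d ∈ D, d ^ 2 = 1 := fun d hd => hE2 d hd.1
    have hDn : ∀ d ∈ D, x * d * x⁻¹ ∈ D := by
      intro d hd
      refine mem_inf.mpr ⟨hEn.conj_mem d hd.1 x, ?_⟩
      rw [mem_centralizer_iff]
      intro b hb
      have h1 : b * d = d * b := (mem_centralizer_iff.mp hd.2) b hb
      have h2 : b * x = x * b := hAc b (hBA hb) x hxA
      have h3 : b * x⁻¹ = x⁻¹ * b := by
        have : x⁻¹ * (b * x) * x⁻¹ = x⁻¹ * (x * b) * x⁻¹ := by rw [h2]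
        calc b * x⁻¹ = x⁻¹ * (x * b) * x⁻¹ := by group
          _ = x⁻¹ * (b * x) * x⁻¹ := by rw [h2]
          _ = x⁻¹ * b := by group
      calc b * (x * d * x⁻¹) = (b * x) * d * x⁻¹ := by group
        _ = x * (b * d) * x⁻¹ := by rw [h2]; group
        _ = x * d * (b * x⁻¹) := by rw [h1]; group
        _ = x * d * x⁻¹ * b := by rw [h3]; group
    have h1 := card_le_sq D hD2 x hxx hDn
    have h2 : D ⊓ centralizer ({x} : Set X) ≤ E ⊓ centralizer (B' : Set X) := by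
      intro g hg
      refine mem_inf.mpr ⟨hg.1.1, ?_⟩
      have h3 : B' ≤ centralizer ({g} : Set X) := by
        apply sup_le
        · intro b hb
          rw [mem_centralizer_singleton_iff]
          exact (mem_centralizer_iff.mp hg.1.2) b hb
        · rw [zpowers_le, mem_centralizer_singleton_iff]
          exact (mem_centralizer_singleton_iff.mp hg.2).symm
      rw [mem_centralizer_iff]
      intro y hy
      exact mem_centralizer_singleton_iff.mp (h3 hy)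
    have h3 : Nat.card D ≤ Nat.card (E ⊓ centralizer (B' : Set X) : Subgroup X) ^ 2 :=
      h1.trans (Nat.pow_le_pow_left (card_le_of_le h2) 2)
    have h4 : 2 * Nat.card B ≤ Nat.card B' := by
      obtain ⟨t, ht⟩ := card_dvd_of_le hBB'.le
      have hpos : 0 < Nat.card B := Nat.card_pos
      have hpos' : 0 < Nat.card B' := Nat.card_pos
      have hne : Nat.card B ≠ Nat.card B' := by
        intro h
        exact hBB'.ne (eq_of_le_of_card_ge hBB'.le h.ge)
      rcases t with _ | _ | t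
      · rw [ht] at hpos'; simp at hpos'
      · rw [ht] at hne; simp at hne
      · rw [ht]; nlinarith
    have h5 : Nat.card E ^ Nat.card A₀ ≤
        Nat.card (E ⊓ centralizer (B' : Set X) : Subgroup X) ^ Nat.card B' := by
      calc Nat.card E ^ Nat.card A₀ ≤ Nat.card D ^ Nat.card B := hBP
        _ ≤ (Nat.card (E ⊓ centralizer (B' : Set X) : Subgroup X) ^ 2) ^ Nat.card B :=
          Nat.pow_le_pow_left h3 _
        _ = Nat.card (E ⊓ centralizer (B' : Set X) : Subgroup X) ^ (2 * Nat.card B) := by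
          rw [← pow_mul]
        _ ≤ Nat.card (E ⊓ centralizer (B' : Set X) : Subgroup X) ^ Nat.card B' :=
          Nat.pow_le_pow_right Nat.card_pos h4
    have h6 := hmax ⟨hB0.trans hBB'.le, hB'A, h5⟩ hBB'.le
    exact absurd h6 (not_le_of_gt hBB')

theorem exists_between (hX : IsPGroup 2 X) (H B : Subgroup X) (hHB : H ≤ B) (m : ℕ)
    (hH : Nat.card H ≤ 2 ^ m) (hB : 2 ^ m ≤ Nat.card B) :
    ∃ K : Subgroup X, H ≤ K ∧ K ≤ B ∧ Nat.card K = 2 ^ m := by
  haveI : Fact (Nat.Prime 2) := ⟨Nat.prime_two⟩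
  obtain ⟨n, hn⟩ := (hX.to_subgroup H).exists_card_eq
  obtain ⟨b, hb⟩ := (hX.to_subgroup B).exists_card_eq
  have hnm : n ≤ m := by
    rw [hn] at hH
    exact (Nat.pow_le_pow_iff_right (by norm_num)).mp hH
  have hmb : m ≤ b := by
    rw [hb] at hB
    exact (Nat.pow_le_pow_iff_right (by norm_num)).mp hB
  obtain ⟨K, hK, hHK⟩ := Sylow.exists_subgroup_card_pow_prime_le (G := B) 2 (n := n) (m := m)
    (by rw [hb]; exact pow_dvd_pow 2 hmb) (H.subgroupOf B)
    (by rw [Nat.card_congr (subgroupOfEquivOfLe hHB).toEquiv, hn]) hnm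
  refine ⟨K.map B.subtype, ?_, map_subtype_le K, ?_⟩
  · intro h hh
    exact ⟨⟨h, hHB hh⟩, hHK (mem_subgroupOf.mpr hh), rfl⟩
  · rw [card_map_of_injective B.subtype_injective, hK]


/-- an element of `C_E(A)` outside `A` -/
theorem exists_outside (hX : IsPGroup 2 X) (E : Subgroup X) [hEn : E.Normal]
    (hE2 : ∀ e ∈ E, e ^ 2 = 1) (k e : ℕ)
    (hnum : ∀ j c : ℕ, j < k → e * 2 ^ j ≤ c * 2 ^ k → j < c) (hE : 2 ^ e ≤ Nat.card E)
    (A : Subgroup X) (hA2 : ∀ a ∈ A, a ^ 2 = 1) (hA : Nat.card A = 2 ^ k) (hAE : ¬ A ≤ E) :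
    ∃ a ∈ E, a ∈ centralizer (A : Set X) ∧ a ∉ A := by
  haveI : Fact (Nat.Prime 2) := ⟨Nat.prime_two⟩
  have hAc := comm_of A hA2
  obtain ⟨j, hj⟩ := (hX.to_subgroup (A ⊓ E)).exists_card_eq
  obtain ⟨c, hc⟩ := (hX.to_subgroup (E ⊓ centralizer (A : Set X))).exists_card_eq
  have hjk : j < k := by
    have h1 : Nat.card (A ⊓ E : Subgroup X) < Nat.card A := by
      by_contra hcon
      have : A ⊓ E = A := eq_of_le_of_card_ge inf_le_left (not_lt.mp hcon)
      exact hAE (inf_eq_left.mp this)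
    rw [hj, hA] at h1
    exact (Nat.pow_lt_pow_iff_right (by norm_num)).mp h1
  have h1 := key E hE2 A hA2
  rw [hj, hc, hA] at h1
  have h2 : (2 ^ e) ^ 2 ^ j ≤ (2 ^ c) ^ 2 ^ k := (Nat.pow_le_pow_left hE _).trans h1
  rw [← pow_mul, ← pow_mul] at h2
  have h3 := (Nat.pow_le_pow_iff_right (by norm_num : 1 < 2)).mp h2
  have h4 := hnum j c hjk h3
  have h5 : A ⊓ E ≤ E ⊓ centralizer (A : Set X) := by
    intro a ha
    refine mem_inf.mpr ⟨ha.2, ?_⟩
    rw [mem_centralizer_iff]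
    intro b hb
    exact hAc b hb a ha.1
  have h6 : A ⊓ E < E ⊓ centralizer (A : Set X) := by
    apply lt_of_le_of_ne h5
    intro h
    rw [h, hc] at hj
    have := (Nat.pow_right_injective (le_refl 2)) hj
    omega
  obtain ⟨a, ha, ha'⟩ := SetLike.exists_of_lt h6
  exact ⟨a, ha.1, ha.2, fun h => ha' (mem_inf.mpr ⟨h, ha.1⟩)⟩

omit [Finite X] in
/-- adjoining a commuting involution -/
theorem sup_sq (A : Subgroup X) (hA2 : ∀ a ∈ A, a ^ 2 = 1) (a : X) (ha2 : a ^ 2 = 1)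
    (hac : a ∈ centralizer (A : Set X)) : ∀ b ∈ A ⊔ zpowers a, b ^ 2 = 1 := by
  have hZ2 : ∀ b ∈ zpowers a, b ^ 2 = 1 := by
    intro b hb
    obtain ⟨n, rfl⟩ := mem_zpowers_iff.mp hb
    rw [← zpow_natCast, ← zpow_mul, mul_comm, zpow_mul, zpow_natCast, ha2, one_zpow]
  exact (NFour.sup_ea (p := 2) A (zpowers a) ⟨NFour.comm_of_sq A hA2, hA2⟩
    ⟨NFour.comm_of_sq _ hZ2, hZ2⟩ (by
      intro x hx b hb
      obtain ⟨n, rfl⟩ := mem_zpowers_iff.mp hb
      have hc : Commute x a := (mem_centralizer_iff.mp hac) x hx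
      exact (hc.zpow_right n).eq)).2

theorem step (hX : IsPGroup 2 X) (E : Subgroup X) [hEn : E.Normal]
    (hE2 : ∀ e ∈ E, e ^ 2 = 1) (k e : ℕ)
    (hnum : ∀ j c : ℕ, j < k → e * 2 ^ j ≤ c * 2 ^ k → j < c) (hE : 2 ^ e ≤ Nat.card E)
    (A : Subgroup X) (hA2 : ∀ a ∈ A, a ^ 2 = 1) (hA : Nat.card A = 2 ^ k) (hAE : ¬ A ≤ E) :
    ∃ A' : Subgroup X, (∀ a ∈ A', a ^ 2 = 1) ∧ Nat.card A' = 2 ^ k ∧
      (∀ a ∈ A, ∀ b ∈ A', a * b = b * a) ∧
      Nat.card (A ⊓ E : Subgroup X) < Nat.card (A' ⊓ E : Subgroup X) := by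
  haveI : Fact (Nat.Prime 2) := ⟨Nat.prime_two⟩
  obtain ⟨a, haE, hac, haA⟩ := exists_outside hX E hE2 k e hnum hE A hA2 hA hAE
  set B := A ⊔ zpowers a with hB
  have hB2 : ∀ b ∈ B, b ^ 2 = 1 := sup_sq A hA2 a (hE2 a haE) hac
  have hBc := comm_of B hB2
  have hAB : A ≤ B := le_sup_left
  have haB : a ∈ B := le_sup_right (a := A) (mem_zpowers a)
  have hlt : Nat.card (A ⊓ E : Subgroup X) < Nat.card (B ⊓ E : Subgroup X) := by
    have hle : A ⊓ E ≤ B ⊓ E := inf_le_inf_right E hAB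
    by_contra hcon
    have h1 : A ⊓ E = B ⊓ E := eq_of_le_of_card_ge hle (not_lt.mp hcon)
    have h2 : a ∈ A ⊓ E := by rw [h1]; exact mem_inf.mpr ⟨haB, haE⟩
    exact haA h2.1
  by_cases h : 2 ^ k ≤ Nat.card (B ⊓ E : Subgroup X)
  · obtain ⟨A', hA'le, hA'⟩ := Sylow.exists_subgroup_le_card_pow_prime_of_le_card (n := k)
      Nat.prime_two hX (H := B ⊓ E) h
    refine ⟨A', fun x hx => hB2 x (hA'le hx).1, hA', fun x hx y hy => hBc x (hAB hx) y (hA'le hy).1, ?_⟩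
    have h1 : A' ⊓ E = A' := inf_eq_left.mpr (hA'le.trans inf_le_right)
    rw [h1, hA', ← hA]
    by_contra hcon
    have : A ⊓ E = A := eq_of_le_of_card_ge inf_le_left (not_lt.mp hcon)
    exact hAE (inf_eq_left.mp this)
  · obtain ⟨A', h1, h2, hA'⟩ := exists_between hX (B ⊓ E) B inf_le_left k (not_le.mp h).le
      (by rw [← hA]; exact card_le_of_le hAB)
    refine ⟨A', fun x hx => hB2 x (h2 hx), hA', fun x hx y hy => hBc x (hAB hx) y (h2 hy), ?_⟩
    exact lt_of_lt_of_le hlt (card_le_of_le (le_inf h1 inf_le_right))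

/-- the commuting relation on elementary abelian subgroups of order `2 ^ k` -/
def Rel (k : ℕ) (C D : Subgroup X) : Prop :=
  (∀ a ∈ C, a ^ 2 = 1) ∧ Nat.card C = 2 ^ k ∧ (∀ a ∈ D, a ^ 2 = 1) ∧ Nat.card D = 2 ^ k ∧
    ∀ c ∈ C, ∀ d ∈ D, c * d = d * c

theorem reach (hX : IsPGroup 2 X) (E : Subgroup X) [hEn : E.Normal]
    (hE2 : ∀ e ∈ E, e ^ 2 = 1) (k e : ℕ)
    (hnum : ∀ j c : ℕ, j < k → e * 2 ^ j ≤ c * 2 ^ k → j < c) (hE : 2 ^ e ≤ Nat.card E) (n : ℕ) :
    ∀ A : Subgroup X, (∀ a ∈ A, a ^ 2 = 1) → Nat.card A = 2 ^ k →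
      2 ^ k - Nat.card (A ⊓ E : Subgroup X) = n →
      ∃ A' : Subgroup X, A' ≤ E ∧ Nat.card A' = 2 ^ k ∧ Relation.ReflTransGen (Rel k) A A' := by
  induction n using Nat.strong_induction_on with
  | _ n ih =>
    intro A hA2 hA hn
    by_cases hAE : A ≤ E
    · exact ⟨A, hAE, hA, Relation.ReflTransGen.refl⟩
    · obtain ⟨A₁, h1, h2, h3, h4⟩ := step hX E hE2 k e hnum hE A hA2 hA hAE
      have h5 : Nat.card (A₁ ⊓ E : Subgroup X) ≤ 2 ^ k := by
        rw [← h2]; exact card_le_of_le inf_le_left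
      obtain ⟨A', h6, h7, h8⟩ := ih (2 ^ k - Nat.card (A₁ ⊓ E : Subgroup X)) (by omega) A₁ h1 h2 rfl
      exact ⟨A', h6, h7, Relation.ReflTransGen.head ⟨hA2, hA, h1, h2, h3⟩ h8⟩

theorem connected (hX : IsPGroup 2 X) (E : Subgroup X) [hEn : E.Normal]
    (hE2 : ∀ e ∈ E, e ^ 2 = 1) (k e : ℕ)
    (hnum : ∀ j c : ℕ, j < k → e * 2 ^ j ≤ c * 2 ^ k → j < c) (hE : 2 ^ e ≤ Nat.card E)
    (A B : Subgroup X) (hA2 : ∀ a ∈ A, a ^ 2 = 1) (hA : Nat.card A = 2 ^ k)
    (hB2 : ∀ a ∈ B, a ^ 2 = 1) (hB : Nat.card B = 2 ^ k) :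
    Relation.ReflTransGen (Rel k) A B := by
  obtain ⟨A', h1, h2, h3⟩ := reach hX E hE2 k e hnum hE _ A hA2 hA rfl
  obtain ⟨B', h4, h5, h6⟩ := reach hX E hE2 k e hnum hE _ B hB2 hB rfl
  haveI hsymm : Std.Symm (Rel (X := X) k) := ⟨by
    rintro C D ⟨a, b, c, d, e⟩
    exact ⟨c, d, a, b, fun x hx y hy => (e y hy x hx).symm⟩⟩
  have h7 : Rel k A' B' := ⟨fun a ha => hE2 a (h1 ha), h2, fun a ha => hE2 a (h4 ha), h5,
    fun x hx y hy => comm_of E hE2 x (h1 hx) y (h4 hy)⟩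
  exact (h3.tail h7).trans ((Relation.ReflTransGen.stdSymm (r := Rel (X := X) k)).symm _ _ h6)

theorem extend (hX : IsPGroup 2 X) (E : Subgroup X) [hEn : E.Normal]
    (hE2 : ∀ e ∈ E, e ^ 2 = 1) (k e : ℕ)
    (hnum : ∀ j c : ℕ, j < k → e * 2 ^ j ≤ c * 2 ^ k → j < c) (hE : 2 ^ e ≤ Nat.card E)
    (hke : k < e)
    (A : Subgroup X) (hA2 : ∀ a ∈ A, a ^ 2 = 1) (hA : Nat.card A = 2 ^ k) :
    ∃ B : Subgroup X, A ≤ B ∧ (∀ a ∈ B, a ^ 2 = 1) ∧ Nat.card B = 2 ^ (k + 1) := by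
  by_cases hAE : A ≤ E
  · obtain ⟨B, h1, h2, h3⟩ := exists_between hX A E hAE (k + 1)
      (by rw [hA]; exact Nat.pow_le_pow_right (by norm_num) (by omega))
      ((Nat.pow_le_pow_right (by norm_num) (by omega)).trans hE)
    exact ⟨B, h1, fun a ha => hE2 a (h2 ha), h3⟩
  · obtain ⟨a, haE, hac, haA⟩ := exists_outside hX E hE2 k e hnum hE A hA2 hA hAE
    have hB2 := sup_sq A hA2 a (hE2 a haE) hac
    have hlt : A < A ⊔ zpowers a := by
      apply lt_of_le_of_ne le_sup_left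
      intro h
      apply haA
      rw [h]
      exact le_sup_right (a := A) (mem_zpowers a)
    haveI : Fact (Nat.Prime 2) := ⟨Nat.prime_two⟩
    obtain ⟨b, hb⟩ := (hX.to_subgroup (A ⊔ zpowers a)).exists_card_eq
    have h1 : Nat.card A < Nat.card (A ⊔ zpowers a : Subgroup X) := by
      by_contra hcon
      exact hlt.ne (eq_of_le_of_card_ge hlt.le (not_lt.mp hcon))
    rw [hA, hb] at h1
    have h2 := (Nat.pow_lt_pow_iff_right (by norm_num : 1 < 2)).mp h1
    obtain ⟨B, h3, h4, h5⟩ := exists_between hX A (A ⊔ zpowers a) hlt.le (k + 1)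
      (by rw [hA]; exact Nat.pow_le_pow_right (by norm_num) (by omega))
      (by rw [hb]; exact Nat.pow_le_pow_right (by norm_num) (by omega))
    exact ⟨B, h3, fun x hx => hB2 x (h4 hx), h5⟩

end Cfsg.H9.KConn
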