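import Mathlib
import Cfsg.Agent.Lib.Helper8.ZS12
import Cfsg.Agent.H9.Local4

/-!
# Applications of the Z*-theorem (helper library of helper9)
-/

set_option autoImplicit false
set_option linter.style.haveILetI false
set_option linter.unusedSectionVars false

namespace Cfsg.H9

open Cfsg.Agent.Lib.Helper8.ZS

universe u

/-- in a `p`-group `A`, a proper normal subgroup `B` admits `a ∉ B` central modulo `B` -/
theorem exists_central_mod {X : Type u} [Group X] [Finite X] {p : ℕ} [Fact p.Prime]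
    {A B : Subgroup X} (hA : IsPGroup p ↥A) (hBA : B ≤ A)
    (hn : A ≤ Subgroup.normalizer (B : Set X)) (hne : B ≠ A) :
    ∃ a ∈ A, a ∉ B ∧ ∀ c ∈ A, c * a * c⁻¹ * a⁻¹ ∈ B := by
  haveI : (B.subgroupOf A).Normal := (Subgroup.normal_subgroupOf_iff_le_normalizer hBA).mpr hn
  have hq : IsPGroup p (↥A ⧸ B.subgroupOf A) := hA.to_quotient _
  haveI : Nontrivial (↥A ⧸ B.subgroupOf A) := by
    rw [← not_subsingleton_iff_nontrivial, QuotientGroup.subsingleton_iff]
    intro h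
    apply hne
    apply le_antisymm hBA
    rwa [Subgroup.subgroupOf_eq_top] at h
  haveI := hq.center_nontrivial
  obtain ⟨⟨z, hz⟩, hz1⟩ := exists_ne (1 : Subgroup.center (↥A ⧸ B.subgroupOf A))
  obtain ⟨a, rfl⟩ := QuotientGroup.mk'_surjective _ z
  refine ⟨a.1, a.2, ?_, ?_⟩
  · intro haB
    apply hz1
    apply Subtype.ext
    exact (QuotientGroup.eq_one_iff a).mpr haB
  · intro c hc
    have h1 := Subgroup.mem_center_iff.mp hz (QuotientGroup.mk' _ ⟨c, hc⟩)
    have h2 : QuotientGroup.mk' (B.subgroupOf A) (⟨c, hc⟩ * a * ⟨c, hc⟩⁻¹ * a⁻¹) = 1 := by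
      rw [map_mul, map_mul, map_mul, map_inv, map_inv, h1]
      group
    have h3 : (⟨c, hc⟩ * a * ⟨c, hc⟩⁻¹ * a⁻¹ : ↥A) ∈ B.subgroupOf A :=
      (QuotientGroup.eq_one_iff _).mp h2
    exact h3

/-- core of S1251 -/
theorem strongly_closed_centralizes_aux {X : Type u} [Group X] [Finite X] (T : Sylow 2 X)
    (H A : Subgroup X) [hHn : H.Normal] (hHA : ∀ y : X, ∃ h ∈ H, ∃ c ∈ A, y = h * c)
    (hAT : A ≤ T) (hsc : ∀ a ∈ A, ∀ y : X, y * a * y⁻¹ ∈ T → y * a * y⁻¹ ∈ A)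
    (hdisj : ∀ x, x ∈ A → x ∈ H → x = 1)
    (hO : ∀ V : Subgroup X, V ≤ H → V.Normal → (Nat.card ↥V).Coprime 2 → V = ⊥) :
    A ≤ Subgroup.centralizer (H : Set X) := by
  haveI : Fact (Nat.Prime 2) := ⟨Nat.prime_two⟩
  set B := A ⊓ Subgroup.centralizer (H : Set X) with hB
  have hAp : IsPGroup 2 ↥A := T.isPGroup'.to_le hAT
  have hconjB : ∀ c ∈ A, ∀ b ∈ B, c * b * c⁻¹ ∈ B := by
    intro c hc b hb
    refine Subgroup.mem_inf.mpr ⟨A.mul_mem (A.mul_mem hc (Subgroup.mem_inf.mp hb).1) (A.inv_mem hc), ?_⟩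
    rw [Subgroup.mem_centralizer_iff]
    intro k hk
    have h1 : c⁻¹ * k * c ∈ H := by
      have := hHn.conj_mem k hk c⁻¹
      simpa using this
    have h2 := Subgroup.mem_centralizer_iff.mp (Subgroup.mem_inf.mp hb).2 _ h1
    calc k * (c * b * c⁻¹) = c * ((c⁻¹ * k * c) * b) * c⁻¹ := by group
      _ = c * (b * (c⁻¹ * k * c)) * c⁻¹ := by rw [h2]
      _ = c * b * c⁻¹ * k := by group
  haveI hBn : B.Normal := by
    constructor
    intro b hb y
    obtain ⟨h, hh, c, hc, rfl⟩ := hHA y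
    have h1 := hconjB c hc b hb
    have h2 := Subgroup.mem_centralizer_iff.mp (Subgroup.mem_inf.mp h1).2 h hh
    have : h * c * b * (h * c)⁻¹ = c * b * c⁻¹ := by
      calc h * c * b * (h * c)⁻¹ = (h * (c * b * c⁻¹)) * h⁻¹ := by group
        _ = ((c * b * c⁻¹) * h) * h⁻¹ := by rw [h2]
        _ = c * b * c⁻¹ := by group
    rw [this]
    exact h1
  by_contra hcon
  have hne : B ≠ A := by
    intro h
    apply hcon
    rw [← h]
    exact inf_le_right
  obtain ⟨a, haA, haB, hac⟩ := exists_central_mod hAp (inf_le_left : B ≤ A)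
    (by rw [Subgroup.normalizer_eq_top_iff.mpr hBn]; exact le_top) hne
  have hBT : B ≤ T := inf_le_left.trans hAT
  have hmk : ∀ c ∈ A, QuotientGroup.mk' B (c * a * c⁻¹) = QuotientGroup.mk' B a := by
    intro c hc
    have h1 : QuotientGroup.mk' B (c * a * c⁻¹ * a⁻¹) = 1 := (QuotientGroup.eq_one_iff _).mpr (hac c hc)
    rw [map_mul, map_inv, mul_inv_eq_one] at h1
    exact h1
  have hW : WC (T.mapSurjective (QuotientGroup.mk'_surjective B)) (QuotientGroup.mk' B a) := by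
    intro j y' hy'
    obtain ⟨y, rfl⟩ := QuotientGroup.mk'_surjective B y'
    obtain ⟨t, ht, hte⟩ := hy'
    have h1 : y * a ^ j * y⁻¹ ∈ T := by
      have h2 : QuotientGroup.mk' B t = QuotientGroup.mk' B (y * a ^ j * y⁻¹) := by
        rw [hte]; simp
      have h3 : t⁻¹ * (y * a ^ j * y⁻¹) ∈ B := (QuotientGroup.eq (s := B)).mp h2
      have e : y * a ^ j * y⁻¹ = t * (t⁻¹ * (y * a ^ j * y⁻¹)) := by group
      rw [e]
      exact mul_mem ht (hBT h3)
    have h2 := hsc (a ^ j) (A.pow_mem haA j) y h1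
    obtain ⟨h, hh, c, hc, rfl⟩ := hHA y
    have hcA : c * a ^ j * c⁻¹ ∈ A := A.mul_mem (A.mul_mem hc (A.pow_mem haA j)) (A.inv_mem hc)
    have h3 : (h * c * a ^ j * (h * c)⁻¹) * (c * a ^ j * c⁻¹)⁻¹ = 1 := by
      apply hdisj _ (A.mul_mem h2 (A.inv_mem hcA))
      have h4 := H.mul_mem hh (hHn.conj_mem _ (H.inv_mem hh) (c * a ^ j * c⁻¹))
      have e : (h * c * a ^ j * (h * c)⁻¹) * (c * a ^ j * c⁻¹)⁻¹ =
          h * ((c * a ^ j * c⁻¹) * h⁻¹ * (c * a ^ j * c⁻¹)⁻¹) := by group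
      rw [e]; exact h4
    have h4 : h * c * a ^ j * (h * c)⁻¹ = c * a ^ j * c⁻¹ := mul_inv_eq_one.mp h3
    have h5 : QuotientGroup.mk' B (h * c) * QuotientGroup.mk' B a ^ j * (QuotientGroup.mk' B (h * c))⁻¹ =
        QuotientGroup.mk' B (h * c * a ^ j * (h * c)⁻¹) := by simp
    rw [h5, h4, ← _root_.conj_pow, map_pow, hmk c hc]
  have hz := gen_zstar (T.mapSurjective (QuotientGroup.mk'_surjective B)) (QuotientGroup.mk' B a)
    ⟨a, hAT haA, rfl⟩ hW
  set V := H ⊓ (pPrimeCore 2 (X ⧸ B)).comap (QuotientGroup.mk' B) with hV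
  have hVbot : V = ⊥ := by
    apply hO V inf_le_left inferInstance
    have hinj : Function.Injective ((QuotientGroup.mk' B).comp V.subtype) := by
      rw [injective_iff_map_eq_one]
      intro v hv
      have h1 : (v : X) ∈ B := (QuotientGroup.eq_one_iff _).mp hv
      exact Subtype.ext (hdisj _ (Subgroup.mem_inf.mp h1).1 (Subgroup.mem_inf.mp v.2).1)
    have hcard : Nat.card ↥V ∣ Nat.card ↥(pPrimeCore 2 (X ⧸ B)) := by
      let f : ↥V →* ↥(pPrimeCore 2 (X ⧸ B)) :=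
        ((QuotientGroup.mk' B).comp V.subtype).codRestrict _ (fun v => (Subgroup.mem_inf.mp v.2).2)
      have hf : Function.Injective f := by
        intro v w hvw
        apply hinj
        exact congrArg Subtype.val hvw
      exact Subgroup.card_dvd_of_injective f hf
    exact Nat.Coprime.coprime_dvd_left hcard (pPrimeCore_coprime 2)
  apply haB
  refine Subgroup.mem_inf.mpr ⟨haA, ?_⟩
  rw [Subgroup.mem_centralizer_iff]
  intro h hh
  have h1 : a * h * a⁻¹ * h⁻¹ ∈ V := by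
    refine Subgroup.mem_inf.mpr ⟨H.mul_mem (hHn.conj_mem h hh a) (H.inv_mem hh), ?_⟩
    have := hz (QuotientGroup.mk' B h)
    rw [Subgroup.mem_comap]
    simpa using this
  rw [hVbot, Subgroup.mem_bot] at h1
  have : a * h = (a * h * a⁻¹ * h⁻¹) * (h * a) := by group
  rw [this, h1, one_mul]

end Cfsg.H9
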