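import Mathlib
import Cfsg.Agent.Lib.Helper8.ZS9
import Cfsg.Agent.H9.Comp
import Cfsg.Agent.S0016
import Cfsg.Agent.S0219

/-!
# Quasisimple groups of 2-rank one (helper library of helper9)
-/

set_option autoImplicit false
set_option linter.style.haveILetI false
set_option linter.unusedSectionVars false

open scoped commutatorElement

namespace Cfsg.H9

open Cfsg.Agent.Lib.Helper8.ZS

universe u

section
variable {X : Type u} [Group X] [Finite X]

/-- in a group of 2-rank at most one commuting involutions are equal -/
theorem involution_eq_of_commute (hrk : PRankLE 2 1 X) {u v : X} (hu : orderOf u = 2)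
    (hv : orderOf v = 2) (huv : u * v = v * u) : u = v := by
  classical
  set A := Subgroup.closure ({u, v} : Set X) with hA
  have hcomm : IsMulCommutative ↥A := by
    apply Subgroup.isMulCommutative_closure
    intro a ha b hb
    simp only [Set.mem_insert_iff, Set.mem_singleton_iff] at ha hb
    rcases ha with rfl | rfl <;> rcases hb with rfl | rfl <;> first | rfl | exact huv | exact huv.symm
  have hu2 : u ^ 2 = 1 := hu ▸ pow_orderOf_eq_one u
  have hv2 : v ^ 2 = 1 := hv ▸ pow_orderOf_eq_one v
  have hexp : ∀ a ∈ A, a ^ 2 = 1 := by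
    intro a ha
    have hle : A ≤ Subgroup.centralizer (A : Set X) := by
      intro x hx
      rw [Subgroup.mem_centralizer_iff]
      intro y hy
      exact congrArg Subtype.val (hcomm.is_comm.comm ⟨y, hy⟩ ⟨x, hx⟩)
    induction ha using Subgroup.closure_induction with
    | mem x hx =>
      simp only [Set.mem_insert_iff, Set.mem_singleton_iff] at hx
      rcases hx with rfl | rfl
      · exact hu2
      · exact hv2
    | one => simp
    | mul x y hx hy ihx ihy =>
      have hxy : x * y = y * x := (Subgroup.mem_centralizer_iff.mp (hle hx) y hy).symm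
      rw [(show Commute x y from hxy).mul_pow, ihx, ihy, one_mul]
    | inv x hx ih => rw [inv_pow, ih, inv_one]
  have hcard := hrk A hcomm hexp
  have huA : u ∈ A := Subgroup.subset_closure (by simp)
  have hvA : v ∈ A := Subgroup.subset_closure (by simp)
  have h1 : Subgroup.zpowers u = A := by
    apply Subgroup.eq_of_le_of_card_ge (Subgroup.zpowers_le.mpr huA)
    rw [Nat.card_zpowers, hu]
    simpa using hcard
  rw [← h1] at hvA
  rw [← mem_powers_iff_mem_zpowers, mem_powers_iff_mem_range_orderOf, hu] at hvA
  simp only [Finset.mem_image, Finset.mem_range] at hvA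
  obtain ⟨k, hk, hkv⟩ := hvA
  interval_cases k
  · exfalso
    rw [pow_zero] at hkv
    rw [← hkv, orderOf_one] at hv
    omega
  · rw [pow_one] at hkv
    exact hkv

/-- a quasisimple group of even order and 2-rank one has a central involution and generalized
quaternion Sylow 2-subgroups -/
theorem quasisimple_two_rank_one (hq : IsQuasisimple X) (heven : Even (Nat.card X))
    (hrk : PRankLE 2 1 X) :
    ∃ t : X, orderOf t = 2 ∧ t ∈ Subgroup.center X ∧
      ∃ S : Sylow 2 X, ∃ n : ℕ, Nonempty (↥(S : Subgroup X) ≃* QuaternionGroup (2 ^ (n + 1))) := by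
  haveI : Fact (Nat.Prime 2) := ⟨Nat.prime_two⟩
  haveI hperf : Group.IsPerfect X := hq.1
  obtain ⟨t, ht⟩ := exists_prime_orderOf_dvd_card' 2 (even_iff_two_dvd.mp heven)
  have hiso : IsIsolatedInvolution t := by
    refine ⟨ht, fun g hc => ?_⟩
    have h1 : orderOf (g * t * g⁻¹) = 2 := by
      rw [← ht]
      exact (MulAut.conj g).orderOf_eq t
    exact (involution_eq_of_commute hrk ht h1 hc).symm
  have hz := zstar hiso
  have hO : pPrimeCore 2 X ≤ Subgroup.center X := by
    rcases qs_eq_top_or_le_center hq
      (inferInstance : (pPrimeCore 2 X).Normal).isSubnormal with h | h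
    · exfalso
      have h1 := pPrimeCore_coprime 2 (G := X)
      rw [h, Subgroup.card_top] at h1
      exact (Nat.Prime.coprime_iff_not_dvd Nat.prime_two).mp h1.symm (even_iff_two_dvd.mp heven)
    · exact h
  have htc : t ∈ Subgroup.center X := by
    have h1 : ⁅⁅Subgroup.zpowers t, (⊤ : Subgroup X)⁆, (⊤ : Subgroup X)⁆ = ⊥ := by
      rw [Subgroup.commutator_eq_bot_iff_le_centralizer, Subgroup.coe_top,
        Subgroup.centralizer_univ]
      refine le_trans ?_ hO
      rw [Subgroup.commutator_le]
      intro a ha b _
      have h2 : Subgroup.zpowers t ≤ (Subgroup.center (X ⧸ pPrimeCore 2 X)).comap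
          (QuotientGroup.mk' (pPrimeCore 2 X)) := by
        rw [Subgroup.zpowers_le, Subgroup.mem_comap, Subgroup.mem_center_iff]
        intro y
        obtain ⟨y, rfl⟩ := QuotientGroup.mk'_surjective _ y
        have h3 : QuotientGroup.mk' (pPrimeCore 2 X) (t * y * t⁻¹ * y⁻¹) = 1 :=
          (QuotientGroup.eq_one_iff _).mpr (hz y)
        rw [map_mul, map_mul, map_mul, map_inv, map_inv, mul_inv_eq_one, mul_inv_eq_iff_eq_mul] at h3
        exact h3.symm
      have h3 := Subgroup.mem_center_iff.mp (Subgroup.mem_comap.mp (h2 ha))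
        (QuotientGroup.mk' (pPrimeCore 2 X) b)
      rw [← QuotientGroup.eq_one_iff]
      show QuotientGroup.mk' (pPrimeCore 2 X) (a * b * a⁻¹ * b⁻¹) = 1
      rw [map_mul, map_mul, map_mul, map_inv, map_inv, ← h3]
      group
    have h2 := perfect_comm_of_comm_comm (L := (⊤ : Subgroup X)) (H := Subgroup.zpowers t)
      (by
        have := hperf.commutator_eq_top
        exact this) h1
    rw [Subgroup.commutator_comm, Subgroup.commutator_eq_bot_iff_le_centralizer, Subgroup.coe_top,
      Subgroup.centralizer_univ] at h2
    exact h2 (Subgroup.mem_zpowers t)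
  have huniq : ∀ u : X, orderOf u = 2 → u = t := by
    intro u hu
    exact involution_eq_of_commute hrk hu ht (Subgroup.mem_center_iff.mp htc u)
  refine ⟨t, ht, htc, ?_⟩
  obtain ⟨S⟩ : Nonempty (Sylow 2 X) := inferInstance
  have hsub : ∀ H : Subgroup ↥(S : Subgroup X), Nat.card ↥H = 2 →
      ∀ w : ↥(S : Subgroup X), w ∈ H ↔ (w = 1 ∨ (w : X) = t) := by
    intro H hH
    have key : ∀ w ∈ H, w = 1 ∨ (w : X) = t := by
      intro w hw
      by_cases hw1 : w = 1
      · exact Or.inl hw1
      · right
        apply huniq
        have h1 : orderOf (⟨w, hw⟩ : ↥H) ∣ 2 := by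
          have h0 := orderOf_dvd_natCard (⟨w, hw⟩ : ↥H)
          rwa [hH] at h0
        rw [Subgroup.orderOf_mk] at h1
        rw [Subgroup.orderOf_coe]
        rcases (Nat.dvd_prime Nat.prime_two).mp h1 with h | h
        · exact absurd (orderOf_eq_one_iff.mp h) hw1
        · exact h
    intro w
    constructor
    · exact key w
    · rintro (rfl | hw)
      · exact H.one_mem
      · haveI : Nontrivial ↥H := by
          rw [← Finite.one_lt_card_iff_nontrivial, hH]; norm_num
        obtain ⟨⟨v, hv⟩, hv1⟩ := exists_ne (1 : ↥H)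
        rcases key v hv with h | h
        · exact absurd (Subtype.ext h) hv1
        · have : w = v := Subtype.ext (hw.trans h.symm)
          rw [this]; exact hv
  rcases Cfsg.Agent.S0016.result (G := ↥(S : Subgroup X)) 2 S.isPGroup' (by
    intro H K hH hK
    ext w
    rw [hsub H hH, hsub K hK]) with hc | ⟨_, n, ⟨e⟩⟩
  · exfalso
    obtain ⟨H, hH⟩ := Cfsg.Agent.S0219.result heven S hc
    haveI : H.Normal := Subgroup.normal_of_index_eq_two hH
    have h1 : IsPGroup 2 (X ⧸ H) := by
      apply IsPGroup.of_card (n := 1)
      rw [pow_one, ← hH]; rfl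
    haveI : Group.IsNilpotent (X ⧸ H) := h1.isNilpotent
    have h2 : Subsingleton (X ⧸ H) := by
      by_contra hns
      rw [not_subsingleton_iff_nontrivial] at hns
      exact Group.IsPerfect.not_isSolvable (G := X ⧸ H) inferInstance
    have h3 : H = ⊤ := QuotientGroup.subsingleton_iff.mp h2
    rw [h3, Subgroup.index_top] at hH
    omega
  · rcases n with _ | n
    · exfalso
      have hc : IsCyclic ↥(S : Subgroup X) := by
        haveI : IsCyclic (QuaternionGroup (2 ^ 0)) := by
          rw [pow_zero]; exact QuaternionGroup.quaternionGroup_one_isCyclic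
        exact isCyclic_of_surjective e.symm e.symm.surjective
      obtain ⟨H, hH⟩ := Cfsg.Agent.S0219.result heven S hc
      haveI : H.Normal := Subgroup.normal_of_index_eq_two hH
      have h1 : IsPGroup 2 (X ⧸ H) := by
        apply IsPGroup.of_card (n := 1)
        rw [pow_one, ← hH]; rfl
      haveI : Group.IsNilpotent (X ⧸ H) := h1.isNilpotent
      have h2 : Subsingleton (X ⧸ H) := by
        by_contra hns
        rw [not_subsingleton_iff_nontrivial] at hns
        exact Group.IsPerfect.not_isSolvable (G := X ⧸ H) inferInstance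
      have h3 : H = ⊤ := QuotientGroup.subsingleton_iff.mp h2
      rw [h3, Subgroup.index_top] at hH
      omega
    · exact ⟨S, n, ⟨e⟩⟩

end

end Cfsg.H9
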